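import Mathlib
import Cfsg.Agent.Lib.Helper55.OOG.Defs

/-!
# OOG (S2413) package [ALG]: the algebra of the Siegel transformations `ρ_{u,w}` with a fixed
singular vector `u` (all six items).
-/

set_option autoImplicit false
open scoped Matrix

namespace Cfsg.Agent.Lib.Helper71.OOG

open Cfsg.Agent.Lib.Helper55.OOG

universe u

/-- `B` of a Siegel-shaped expression. -/
theorem B_siegExpr_left {m : ℕ} {F : Type u} [Field F] (v u w y : Vec m F) (a b : F) :
    B (v + a • w - b • u) y = B v y + a * B w y - b * B u y := by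
  rw [B_sub_left, B_add_left, B_smul_left, B_smul_left]

/-- [ALG](a). -/
theorem isSieg_zero_one {m : ℕ} {F : Type u} [Field F] (u : Vec m F) :
    IsSieg u 0 (1 : ↥(Iso m F)) := by
  intro v
  rw [one_act, B_zero_right, Q_zero]
  simp

/-- [ALG](b). -/
theorem isSieg_mul {m : ℕ} {F : Type u} [Field F] {u : Vec m F} (hu : QF m F u = 0)
    {w w' : Vec m F} {σ σ' : ↥(Iso m F)} (hw : B u w = 0) (hw' : B u w' = 0)
    (hσ : IsSieg u w σ) (hσ' : IsSieg u w' σ') : IsSieg u (w + w') (σ * σ') := by
  intro v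
  have huu : B u u = 0 := by rw [B_self, hu, mul_zero]
  have hwu' : B w' u = 0 := by rw [B_comm, hw']
  rw [mul_act, hσ' v, hσ]
  rw [B_siegExpr_left, B_siegExpr_left, huu, hwu', hw, B_add_right, Q_add, B_comm w' w]
  module

/-- [ALG](c). -/
theorem isSieg_inv {m : ℕ} {F : Type u} [Field F] {u : Vec m F} (hu : QF m F u = 0)
    {w : Vec m F} {σ : ↥(Iso m F)} (hw : B u w = 0) (hσ : IsSieg u w σ) :
    IsSieg u (-w) σ⁻¹ := by
  intro v
  have huu : B u u = 0 := by rw [B_self, hu, mul_zero]
  have hwu : B w u = 0 := by rw [B_comm, hw]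
  have key : mat σ *ᵥ (v + B v u • (-w) - (B v (-w) + QF m F (-w) * B v u) • u) = v := by
    rw [hσ, B_siegExpr_left, B_siegExpr_left, huu, B_neg_left, B_neg_left, hwu, hw, B_neg_right,
      Q_neg, B_self]
    module
  have h := inv_act σ (v + B v u • (-w) - (B v (-w) + QF m F (-w) * B v u) • u)
  rw [key] at h
  exact h

/-- [ALG](d). -/
theorem isSieg_smul_iff {m : ℕ} {F : Type u} [Field F] (u : Vec m F) (a : F) (w : Vec m F)
    (σ : ↥(Iso m F)) : IsSieg (a • u) w σ ↔ IsSieg u (a • w) σ := by
  have key : ∀ v : Vec m F, v + B v (a • u) • w - (B v w + QF m F w * B v (a • u)) • (a • u) =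
      v + B v u • (a • w) - (B v (a • w) + QF m F (a • w) * B v u) • u := by
    intro v
    rw [B_smul_right, B_smul_right, Q_smul]
    module
  constructor
  · intro h v
    exact (h v).trans (key v)
  · intro h v
    exact (h v).trans (key v).symm

/-- [ALG](e). -/
theorem isSieg_add_smul_iff {m : ℕ} {F : Type u} [Field F] {u : Vec m F} (hu : QF m F u = 0)
    (a : F) {w : Vec m F} (σ : ↥(Iso m F)) (hw : B u w = 0) :
    IsSieg u (w + a • u) σ ↔ IsSieg u w σ := by
  have hwu : B w u = 0 := by rw [B_comm, hw]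
  have key : ∀ v : Vec m F,
      v + B v u • (w + a • u) - (B v (w + a • u) + QF m F (w + a • u) * B v u) • u =
      v + B v u • w - (B v w + QF m F w * B v u) • u := by
    intro v
    rw [B_add_right, B_smul_right, Q_add, Q_smul, hu, B_smul_right, hwu]
    module
  constructor
  · intro h v
    exact (h v).trans (key v)
  · intro h v
    exact (h v).trans (key v).symm

/-- [ALG](f). -/
theorem isSieg_swap_iff {m : ℕ} {F : Type u} [Field F] {u : Vec m F} (hu : QF m F u = 0)
    {w : Vec m F} (σ : ↥(Iso m F)) (hw : QF m F w = 0) :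
    IsSieg u w σ ↔ IsSieg w (-u) σ := by
  have key : ∀ v : Vec m F,
      v + B v u • w - (B v w + QF m F w * B v u) • u =
      v + B v w • (-u) - (B v (-u) + QF m F (-u) * B v w) • w := by
    intro v
    rw [B_neg_right, Q_neg, hu, hw]
    module
  constructor
  · intro h v
    exact (h v).trans (key v)
  · intro h v
    exact (h v).trans (key v).symm

/-- Package [ALG]. -/
theorem pkgAlg : Cfsg.Agent.Lib.Helper55.OOG.PkgAlg.{u} := by
  intro m F _ u hu
  refine ⟨isSieg_zero_one u, ?_, ?_, ?_, ?_, ?_⟩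
  · intro w w' σ σ' hw hw' hσ hσ'
    exact isSieg_mul hu hw hw' hσ hσ'
  · intro w σ hw hσ
    exact isSieg_inv hu hw hσ
  · intro a w σ
    exact isSieg_smul_iff u a w σ
  · intro a w σ hw
    exact isSieg_add_smul_iff hu a σ hw
  · intro w σ hw _
    exact isSieg_swap_iff hu σ hw

end Cfsg.Agent.Lib.Helper71.OOG
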